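import Mathlib

set_option autoImplicit false

/-! Multiple transitivity from transitivity of pointwise stabilisers. -/

namespace CfsgLib.Perm2

open MulAction

theorem isMultiplyPretransitive_of_fixing {G α : Type*} [Group G] [MulAction G α] [DecidableEq α] :
    ∀ k : ℕ, (∀ t : Finset α, t.card < k → ∀ a b : α, a ∉ t → b ∉ t →
      ∃ g : G, (∀ x ∈ t, g • x = x) ∧ g • a = b) → IsMultiplyPretransitive G α k := by
  intro k
  induction k with
  | zero =>
      intro _
      exact ⟨fun x y => ⟨1, Function.Embedding.ext fun i => i.elim0⟩⟩
  | succ k ih =>
      intro h
      have hk := ih fun t ht => h t (by omega)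
      refine ⟨fun x y => ?_⟩
      obtain ⟨g, hg⟩ := exists_smul_eq G
        (Fin.castSuccEmb.trans x : Fin k ↪ α) (Fin.castSuccEmb.trans y : Fin k ↪ α)
      have hg' : ∀ i : Fin k, g • x i.castSucc = y i.castSucc := fun i => by
        have := DFunLike.congr_fun hg i
        simpa using this
      set t : Finset α := Finset.univ.image fun i : Fin k => y i.castSucc with ht
      have htc : t.card < k + 1 := by
        have := Finset.card_image_le (s := (Finset.univ : Finset (Fin k)))
          (f := fun i => y i.castSucc)
        simp [ht] at this ⊢
        omega
      have ha : g • x (Fin.last k) ∉ t := by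
        simp only [ht, Finset.mem_image, Finset.mem_univ, true_and, not_exists]
        intro i hi
        rw [← hg' i] at hi
        exact (Fin.castSucc_lt_last i).ne (x.injective (MulAction.injective g hi))
      have hb : y (Fin.last k) ∉ t := by
        simp only [ht, Finset.mem_image, Finset.mem_univ, true_and, not_exists]
        exact fun i hi => (Fin.castSucc_lt_last i).ne (y.injective hi)
      obtain ⟨u, hu, hu'⟩ := h t htc _ _ ha hb
      refine ⟨u * g, Function.Embedding.ext fun i => ?_⟩
      rw [Function.Embedding.smul_apply, mul_smul]
      induction i using Fin.lastCases with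
      | last => exact hu'
      | cast i =>
          rw [hg' i]
          exact hu _ (by simp [ht])

end CfsgLib.Perm2
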