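import Cfsg.Prelude.Def_LieExceptional
import Cfsg.Agent.Eq.Def_LieExceptional

set_option autoImplicit false

/-! Elementary facts about involutions in Zassenhaus groups. -/

namespace CfsgLib.Perm2

open MulAction

variable {G Ω : Type*} [Group G] [MulAction G Ω]

theorem zassenhaus_exists_swap_pair (hZ : Cfsg.IsZassenhausGroup G Ω) {t : G} (ht : t ≠ 1) :
    ∃ c : Ω, t • c ≠ c := by
  by_contra h
  push Not at h
  haveI := hZ.1
  exact ht (FaithfulSMul.eq_of_smul_eq_smul (α := Ω) fun c => by rw [h c, one_smul])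

theorem smul_smul_of_orderOf_two {t : G} (ht : orderOf t = 2) (c : Ω) : t • t • c = c := by
  have : t ^ 2 = 1 := ht ▸ pow_orderOf_eq_one t
  rw [smul_smul, ← sq, this, one_smul]

theorem orderOf_conj_eq (g t : G) : orderOf (g * t * g⁻¹) = orderOf t := by
  rw [← MulAut.conj_apply]
  exact MulEquiv.orderOf_eq (MulAut.conj g) t

/-- any involution yields, by double transitivity, an involution swapping a given pair -/
theorem zassenhaus_conj_swap (hZ : Cfsg.IsZassenhausGroup G Ω) {t : G} (ht : orderOf t = 2)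
    {a b : Ω} (hab : a ≠ b) :
    ∃ g : G, (g * t * g⁻¹) • a = b ∧ (g * t * g⁻¹) • b = a := by
  have ht1 : t ≠ 1 := by intro h; simp [h] at ht
  obtain ⟨c, hc⟩ := zassenhaus_exists_swap_pair hZ ht1
  obtain ⟨g, hg1, hg2⟩ := is_two_pretransitive_iff.1 hZ.2.1 (Ne.symm hc) hab
  refine ⟨g, ?_, ?_⟩
  · rw [mul_smul, mul_smul, ← hg1, inv_smul_smul, hg2, ]
  · rw [mul_smul, mul_smul, ← hg2, inv_smul_smul, smul_smul_of_orderOf_two ht, hg1]

theorem fixedBy_conj_card (g t : G) :
    Nat.card (fixedBy Ω (g * t * g⁻¹)) = Nat.card (fixedBy Ω t) := by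
  refine Nat.card_congr ((MulAction.toPerm g⁻¹ : Equiv.Perm Ω).subtypeEquiv fun x => ?_)
  simp only [mem_fixedBy, toPerm_apply, mul_smul]
  exact smul_eq_iff_eq_inv_smul g

theorem fixedBy_eq_pair (hZ : Cfsg.IsZassenhausGroup G Ω) {t : G} (ht : t ≠ 1) {a b : Ω}
    (hab : a ≠ b) (ha : t • a = a) (hb : t • b = b) : fixedBy Ω t = ({a, b} : Set Ω) := by
  ext c
  refine ⟨fun hc => ?_, fun hc => ?_⟩
  · by_contra h
    simp only [Set.mem_insert_iff, Set.mem_singleton_iff, not_or] at h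
    exact ht (hZ.2.2.1 t a b c hab (Ne.symm h.2) (Ne.symm h.1) ha hb hc)
  · rcases hc with rfl | rfl <;> assumption

theorem zassenhaus_card_fixedBy_le [Finite Ω] (hZ : Cfsg.IsZassenhausGroup G Ω) {t : G} (ht : t ≠ 1) :
    Nat.card (fixedBy Ω t) ≤ 2 := by
  by_contra h
  push Not at h
  rw [Nat.card_coe_set_eq, Set.two_lt_ncard] at h
  obtain ⟨a, ha, b, hb, c, hc, hab, hac, hbc⟩ := h
  exact ht (hZ.2.2.1 t a b c hab hbc hac ha hb hc)

theorem zassenhaus_even_card [Finite G] [Finite Ω] (hZ : Cfsg.IsZassenhausGroup G Ω) {a b : Ω}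
    (hab : a ≠ b) : Even (Nat.card G) := by
  obtain ⟨g, hg1, hg2⟩ := is_two_pretransitive_iff.1 hZ.2.1 hab (Ne.symm hab)
  rw [← Nat.not_odd_iff_even]
  intro hodd
  have ho : Odd (orderOf g) := hodd.of_dvd_nat (orderOf_dvd_natCard g)
  obtain ⟨m, hm⟩ := ho
  have h2 : ∀ j : ℕ, g ^ (2 * j) • a = a := by
    intro j
    induction j with
    | zero => simp
    | succ j ih => rw [show 2 * (j+1) = 2 * j + 2 by ring, pow_add, mul_smul, pow_two, mul_smul, hg1, hg2, ih]
  have := congrArg (fun x : G => x • a) (pow_orderOf_eq_one g)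
  simp only [hm, one_smul, pow_succ', mul_smul, h2 m, hg1] at this
  exact hab this.symm

theorem zassenhaus_involution_pair [Finite G] {a b : Ω}
    (heven : Even (Nat.card ↥(stabilizer G a ⊓ stabilizer G b))) :
    ∃ t : G, orderOf t = 2 ∧ t • a = a ∧ t • b = b := by
  haveI : Fact (Nat.Prime 2) := ⟨Nat.prime_two⟩
  obtain ⟨t, ht⟩ := exists_prime_orderOf_dvd_card' 2 heven.two_dvd
  exact ⟨t.1, (Subgroup.orderOf_coe t).trans ht, t.2.1, t.2.2⟩

end CfsgLib.Perm2
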